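import Cfsg.Agent.H720.TorusReal
import Cfsg.Agent.H129.TorusUntw
import Cfsg.Agent.H378.LatCodim
import Cfsg.Agent.H378.TorChar
import Cfsg.Agent.H790.EP.Lat8
import Cfsg.Agent.H944.RootVals

/-!
# No element of order `143` in `E₈(2)` (helper790, for S5745)

* `kill` : an endomorphism `w` of finite order of `ℤ⁸` with nonzero kernels of `Φ₁₀(w)`, `Φ₁₂(w)`: `Φ₁₀(w) Φ₁₂(w) = 0`;
* `split` : then `w ^ 30 x ≡ x` modulo 2, and `w ^ 30` is neither `1` nor `-1`;
* `sign_of_mod` : an element of the Weyl group of type `E₈` trivial modulo 2 is `1` or `-1`;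
* `no_143` : commuting elements of orders 11 and 13 of `E₈(2)` do not exist.
-/

set_option autoImplicit false
set_option linter.unusedSectionVars false

namespace Cfsg.Agent.H790.EPX.E8A13

open CoxeterSystem Subgroup Cfsg Cfsg.Lie Cfsg.Lie.ChevalleyDatum
open Cfsg.Agent.ChevalleyStructure Cfsg.Agent.ChevalleyStructure.Elts Cfsg.Agent.ChevalleyStructure.CoxeterGeom
  Cfsg.Agent.ChevalleyStructure.CoxeterGeomTypes Cfsg.Agent.ChevalleyStructure.NPerm
open Cfsg.Agent.Tits.Roots Cfsg.Agent.Tits.Core Cfsg.Agent.Nodes.Reps Cfsg.Agent.Nodes.BNOf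
  Cfsg.Agent.Nodes.RGDChev Cfsg.Agent.Nodes.Bruhat
open Cfsg.Agent.KFacts.RgdField Cfsg.Agent.KFacts.RgdChevCoord Cfsg.Agent.BpExc Cfsg.Agent.BpExc.TorCent
  Cfsg.Agent.BpExc.TorChev Cfsg.Agent.BpExc.Tow Cfsg.Agent.BpExc.TowChev Cfsg.Agent.BpExc.Fr
  Cfsg.Agent.BpExc.LangFr Cfsg.Agent.GpExc.Field
open Cfsg.Agent.H129.TorusChar Cfsg.Agent.H129.TorusMain Cfsg.Agent.H129.TorusUntw
open Cfsg.Agent.H378.TorDual Cfsg.Agent.H378.TorChar Cfsg.Agent.H378.LatCyc Cfsg.Agent.H378.LatCodim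
open Cfsg.Agent.H790.EP.Lat8
open Polynomial

universe u

/-! ### lattices -/

section Lat

variable {l : ℕ}

theorem tot10 : Nat.totient 10 = 4 := by decide +kernel
theorem tot12 : Nat.totient 12 = 4 := by decide +kernel

/-- **The product of the two factors vanishes.** -/
theorem kill {w : Module.End ℤ (Fin 8 → ℤ)} {y z : Fin 8 → ℤ} (hy : y ≠ 0) (hz : z ≠ 0)
    (hy' : aeval w (cyclotomic 10 ℤ) y = 0) (hz' : aeval w (cyclotomic 12 ℤ) z = 0) (x : Fin 8 → ℤ) :
    aeval w (cyclotomic 10 ℤ) (aeval w (cyclotomic 12 ℤ) x) = 0 := by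
  obtain ⟨T, hT⟩ : ∃ T, T = toQ w := ⟨_, rfl⟩
  have hyq : aeval T (cyclotomic 10 ℚ) (vq y) = 0 := by rw [hT]; exact aeval_vq hy'
  have hzq : aeval T (cyclotomic 12 ℚ) (vq z) = 0 := by rw [hT]; exact aeval_vq hz'
  have h1 : LinearIndependent ℚ (fun i : Fin (Nat.totient 10) => (T ^ (i : ℕ)) (vq y)) :=
    indepQ (by norm_num) (fun h0 => hy (vq_eq_zero.1 h0)) hyq
  have h2 : LinearIndependent ℚ (fun i : Fin (Nat.totient 12) => (T ^ (i : ℕ)) (vq z)) :=
    indepQ (by norm_num) (fun h0 => hz (vq_eq_zero.1 h0)) hzq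
  have hk1 : ∀ i : ℕ, aeval T (cyclotomic 10 ℚ) ((T ^ i) (vq y)) = 0 := by
    intro i
    have h3 : (T ^ i) (vq y) = aeval T (X ^ i : ℚ[X]) (vq y) := by rw [map_pow, aeval_X]
    rw [h3, ← Module.End.mul_apply, ← map_mul, mul_comm, map_mul, Module.End.mul_apply, hyq, map_zero]
  have hk2 : ∀ i : ℕ, aeval T (cyclotomic 12 ℚ) ((T ^ i) (vq z)) = 0 := by
    intro i
    have h3 : (T ^ i) (vq z) = aeval T (X ^ i : ℚ[X]) (vq z) := by rw [map_pow, aeval_X]
    rw [h3, ← Module.End.mul_apply, ← map_mul, mul_comm, map_mul, Module.End.mul_apply, hzq, map_zero]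
  have hd : Disjoint (Submodule.span ℚ (Set.range fun i : Fin (Nat.totient 10) => (T ^ (i : ℕ)) (vq y)))
      (Submodule.span ℚ (Set.range fun i : Fin (Nat.totient 12) => (T ^ (i : ℕ)) (vq z))) := by
    refine (disjoint_ker_aeval_of_isCoprime T (cyclotomic.isCoprime_rat (n := 10) (m := 12) (by norm_num))).mono
      ?_ ?_
    · rw [Submodule.span_le]
      rintro _ ⟨i, rfl⟩
      exact hk1 i
    · rw [Submodule.span_le]
      rintro _ ⟨i, rfl⟩
      exact hk2 i
  have h3 := h1.sum_type h2 hd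
  have h4 := h3.span_eq_top_of_card_eq_finrank' (by
    rw [Fintype.card_sum, Fintype.card_fin, Fintype.card_fin, Module.finrank_fin_fun, tot10, tot12])
  have h5 : ∀ v : Fin 8 → ℚ, aeval T (cyclotomic 10 ℚ * cyclotomic 12 ℚ) v = 0 := by
    intro v
    have h6 : v ∈ Submodule.span ℚ (Set.range (Sum.elim
        (fun i : Fin (Nat.totient 10) => (T ^ (i : ℕ)) (vq y))
        (fun i : Fin (Nat.totient 12) => (T ^ (i : ℕ)) (vq z)))) := by
      rw [h4]; trivial
    have h7 : Submodule.span ℚ (Set.range (Sum.elim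
        (fun i : Fin (Nat.totient 10) => (T ^ (i : ℕ)) (vq y))
        (fun i : Fin (Nat.totient 12) => (T ^ (i : ℕ)) (vq z)))) ≤
        LinearMap.ker (aeval T (cyclotomic 10 ℚ * cyclotomic 12 ℚ)) := by
      rw [Submodule.span_le]
      rintro _ ⟨i | i, rfl⟩
      · show aeval T (cyclotomic 10 ℚ * cyclotomic 12 ℚ) ((T ^ (i : ℕ)) (vq y)) = 0
        rw [mul_comm, map_mul, Module.End.mul_apply, hk1, map_zero]
      · show aeval T (cyclotomic 10 ℚ * cyclotomic 12 ℚ) ((T ^ (i : ℕ)) (vq z)) = 0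
        rw [map_mul, Module.End.mul_apply, hk2, map_zero]
    exact h7 h6
  apply vq_injective
  have h8 := h5 (vq x)
  rw [← map_cyclotomic_int 10 ℚ, ← map_cyclotomic_int 12 ℚ, ← Polynomial.map_mul, hT, ← toQ_aeval, toQ_vq] at h8
  rw [vq_zero, ← Module.End.mul_apply, ← map_mul]
  exact h8

theorem c10 : cyclotomic 10 ℤ = X ^ 4 - X ^ 3 + X ^ 2 - X + 1 := by
  have h1 : cyclotomic 10 ℤ * (cyclotomic 5 ℤ * (cyclotomic 2 ℤ * cyclotomic 1 ℤ)) = X ^ 10 - 1 := by
    rw [← prod_cyclotomic_eq_X_pow_sub_one (by norm_num : 0 < 10) ℤ]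
    have h2 : Nat.divisors 10 = {1, 2, 5, 10} := by decide +kernel
    rw [h2, Finset.prod_insert (by decide), Finset.prod_insert (by decide), Finset.prod_insert (by decide),
      Finset.prod_singleton]
    ring
  have h5 : cyclotomic 5 ℤ = X ^ 4 + X ^ 3 + X ^ 2 + X + 1 := by
    have : Fact (Nat.Prime 5) := ⟨by norm_num⟩
    rw [cyclotomic_prime]
    simp only [Finset.sum_range_succ, Finset.sum_range_zero]
    ring
  rw [h5, cyclotomic_two, cyclotomic_one] at h1
  have h3 : (X ^ 4 + X ^ 3 + X ^ 2 + X + 1) * ((X + 1) * (X - 1)) ≠ (0 : ℤ[X]) := by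
    have hm : ((X ^ 4 + X ^ 3 + X ^ 2 + X + 1) * ((X + 1) * (X - 1)) : ℤ[X]).eval 2 ≠ 0 := by
      simp only [eval_mul, eval_add, eval_sub, eval_pow, eval_X, eval_one]
      norm_num
    intro h0
    rw [h0, eval_zero] at hm
    exact hm rfl
  apply mul_right_cancel₀ h3
  rw [h1]
  ring

theorem c12 : cyclotomic 12 ℤ = X ^ 4 - X ^ 2 + 1 := by
  have h1 : cyclotomic 12 ℤ * (cyclotomic 4 ℤ * (X ^ 6 - 1)) = X ^ 12 - 1 := by
    rw [← prod_cyclotomic_eq_X_pow_sub_one (by norm_num : 0 < 12) ℤ,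
      ← prod_cyclotomic_eq_X_pow_sub_one (by norm_num : 0 < 6) ℤ]
    have h2 : Nat.divisors 12 = {1, 2, 3, 4, 6, 12} := by decide +kernel
    have h3 : Nat.divisors 6 = {1, 2, 3, 6} := by decide +kernel
    rw [h2, h3, Finset.prod_insert (by decide), Finset.prod_insert (by decide), Finset.prod_insert (by decide),
      Finset.prod_insert (by decide), Finset.prod_insert (by decide), Finset.prod_singleton,
      Finset.prod_insert (by decide), Finset.prod_insert (by decide), Finset.prod_insert (by decide),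
      Finset.prod_singleton]
    ring
  have h4 : cyclotomic 4 ℤ = X ^ 2 + 1 := by
    have : Fact (Nat.Prime 2) := ⟨by norm_num⟩
    have h5 := cyclotomic_prime_pow_eq_geom_sum (R := ℤ) (p := 2) (n := 1) Nat.prime_two
    have h6 : (2 : ℕ) ^ (1 + 1) = 4 := by norm_num
    rw [h6] at h5
    rw [h5]
    simp only [Finset.sum_range_succ, Finset.sum_range_zero]
    ring
  rw [h4] at h1
  have h3 : (X ^ 2 + 1) * (X ^ 6 - 1) ≠ (0 : ℤ[X]) := by
    have hm : ((X ^ 2 + 1) * (X ^ 6 - 1) : ℤ[X]).eval 2 ≠ 0 := by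
      simp only [eval_mul, eval_add, eval_sub, eval_pow, eval_X, eval_one]
      norm_num
    intro h0
    rw [h0, eval_zero] at hm
    exact hm rfl
  apply mul_right_cancel₀ h3
  rw [h1]
  ring

theorem pow5 {w : Module.End ℤ (Fin l → ℤ)} {v : Fin l → ℤ} (h : aeval w (cyclotomic 10 ℤ) v = 0) :
    (w ^ 5) v = - v := by
  have h1 : aeval w ((X + 1) * cyclotomic 10 ℤ) v = 0 := by
    rw [map_mul, Module.End.mul_apply, h, map_zero]
  have h2 : (X + 1) * cyclotomic 10 ℤ = X ^ 5 + 1 := by rw [c10]; ring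
  rw [h2, map_add, map_pow, aeval_X, map_one, LinearMap.add_apply, Module.End.one_apply] at h1
  exact eq_neg_of_add_eq_zero_left h1

theorem pow6 {w : Module.End ℤ (Fin l → ℤ)} {v : Fin l → ℤ} (h : aeval w (cyclotomic 12 ℤ) v = 0) :
    (w ^ 6) v = - v := by
  have h1 : aeval w ((X ^ 2 + 1) * cyclotomic 12 ℤ) v = 0 := by
    rw [map_mul, Module.End.mul_apply, h, map_zero]
  have h2 : (X ^ 2 + 1) * cyclotomic 12 ℤ = X ^ 6 + 1 := by rw [c12]; ring
  rw [h2, map_add, map_pow, aeval_X, map_one, LinearMap.add_apply, Module.End.one_apply] at h1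
  exact eq_neg_of_add_eq_zero_left h1

theorem pow_neg_apply {w : Module.End ℤ (Fin l → ℤ)} {v : Fin l → ℤ} {a : ℕ} (h : (w ^ a) v = -v) (n : ℕ) :
    (w ^ (a * n)) v = (-1 : ℤ) ^ n • v := by
  induction n with
  | zero => rw [mul_zero, pow_zero, pow_zero, one_smul, Module.End.one_apply]
  | succ n ih =>
    rw [Nat.mul_succ, pow_add, Module.End.mul_apply, h, map_neg, ih, pow_succ, mul_neg_one, neg_smul]

theorem pow30 {w : Module.End ℤ (Fin l → ℤ)} {v : Fin l → ℤ} (h : aeval w (cyclotomic 10 ℤ) v = 0) :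
    (w ^ 30) v = v := by
  have h1 := pow_neg_apply (pow5 h) 6
  have h2 : (5 * 6 : ℕ) = 30 := rfl
  rw [h2] at h1
  rw [h1]
  norm_num

theorem pow30' {w : Module.End ℤ (Fin l → ℤ)} {v : Fin l → ℤ} (h : aeval w (cyclotomic 12 ℤ) v = 0) :
    (w ^ 30) v = -v := by
  have h1 := pow_neg_apply (pow6 h) 5
  have h2 : (6 * 5 : ℕ) = 30 := rfl
  rw [h2] at h1
  rw [h1]
  norm_num

/-- **`w ^ 30` is trivial modulo 2.** -/
theorem split {w : Module.End ℤ (Fin 8 → ℤ)} {y z : Fin 8 → ℤ} (hy : y ≠ 0) (hz : z ≠ 0)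
    (hy' : aeval w (cyclotomic 10 ℤ) y = 0) (hz' : aeval w (cyclotomic 12 ℤ) z = 0) (x : Fin 8 → ℤ) :
    ∃ v : Fin 8 → ℤ, (w ^ 30) x = x - (2 : ℤ) • v := by
  have hbez : (2 + X - 2 * X ^ 2 - 2 * X ^ 3) * cyclotomic 10 ℤ + (-1 + X + 2 * X ^ 3) * cyclotomic 12 ℤ = 1 := by
    rw [c10, c12]; ring
  have h1 : aeval w ((2 + X - 2 * X ^ 2 - 2 * X ^ 3) * cyclotomic 10 ℤ) x +
      aeval w ((-1 + X + 2 * X ^ 3) * cyclotomic 12 ℤ) x = x := by
    rw [← LinearMap.add_apply, ← map_add, hbez, map_one, Module.End.one_apply]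
  have h2 : aeval w (cyclotomic 12 ℤ) (aeval w ((2 + X - 2 * X ^ 2 - 2 * X ^ 3) * cyclotomic 10 ℤ) x) = 0 := by
    rw [← Module.End.mul_apply, ← map_mul]
    have e : cyclotomic 12 ℤ * ((2 + X - 2 * X ^ 2 - 2 * X ^ 3) * cyclotomic 10 ℤ) =
        (2 + X - 2 * X ^ 2 - 2 * X ^ 3) * (cyclotomic 10 ℤ * cyclotomic 12 ℤ) := by ring
    rw [e, map_mul, Module.End.mul_apply, map_mul, Module.End.mul_apply, kill hy hz hy' hz', map_zero]
  have h3 : aeval w (cyclotomic 10 ℤ) (aeval w ((-1 + X + 2 * X ^ 3) * cyclotomic 12 ℤ) x) = 0 := by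
    rw [← Module.End.mul_apply, ← map_mul]
    have e : cyclotomic 10 ℤ * ((-1 + X + 2 * X ^ 3) * cyclotomic 12 ℤ) =
        (-1 + X + 2 * X ^ 3) * (cyclotomic 10 ℤ * cyclotomic 12 ℤ) := by ring
    rw [e, map_mul, Module.End.mul_apply, map_mul, Module.End.mul_apply, kill hy hz hy' hz', map_zero]
  revert h1 h2 h3
  generalize aeval w ((2 + X - 2 * X ^ 2 - 2 * X ^ 3) * cyclotomic 10 ℤ) x = u
  generalize aeval w ((-1 + X + 2 * X ^ 3) * cyclotomic 12 ℤ) x = v
  intro h1 h2 h3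
  refine ⟨u, ?_⟩
  rw [← h1, map_add, pow30' h2, pow30 h3, two_smul]
  abel

end Lat


/-! ### the Weyl group -/

section Weyl

theorem hp8 : IsType chevE8 8 CoxeterMatrix.E₈ := by simp [IsType, typeList]

/-- a root congruent to a fundamental root modulo 2 is that root up to sign -/
theorem root_mod : ∀ (i : Fin 8) (r : Fin 240),
    (∀ j : Fin 8, (2 : ℤ) ∣ vec chevE8 8 r j - (if j = i then 1 else 0)) →
    (∀ j : Fin 8, vec chevE8 8 r j = if j = i then 1 else 0) ∨
      (∀ j : Fin 8, vec chevE8 8 r j = -(if j = i then 1 else 0)) := by decide +kernel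

theorem nroots : chevE8.nroots = 240 := by decide +kernel

theorem symm8 : ∀ i j : Fin 8, cartanOf chevE8 8 i j = cartanOf chevE8 8 j i := by decide +kernel

theorem diag8 : ∀ i : Fin 8, cartanOf chevE8 8 i i = 2 := by decide +kernel

/-- the diagram is connected -/
theorem conn8 : ∀ f : Fin 8 → Bool, (∀ i j : Fin 8, cartanOf chevE8 8 i j ≠ 0 → f i = f j) → ∀ i, f i = f 0 := by
  decide +kernel

theorem bf_sr (i j : Fin 8) : bf (cartanOf chevE8 8) (sr i) (sr j) = cartanOf chevE8 8 i j := by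
  rw [show (sr i : Fin 8 → ℤ) = Pi.single i 1 from rfl, bf_single_left, one_mul]
  unfold pairing
  rw [Finset.sum_eq_single j]
  · rw [sr_self, mul_one]
  · intro m _ hm
    rw [sr_ne hm, mul_zero]
  · intro h
    exact absurd (Finset.mem_univ j) h

variable {W : Type*} [Group W] (cs : CoxeterSystem CoxeterMatrix.E₈ W)

theorem sr_cases {s : W} (hs : ∀ x, ∃ v : Fin 8 → ℤ, rep cs hp8.isCartan s x = x - (2 : ℤ) • v) (i : Fin 8) :
    rep cs hp8.isCartan s (sr i) = sr i ∨ rep cs hp8.isCartan s (sr i) = -sr i := by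
  obtain ⟨r, hr, e⟩ := (isRoot_iff hp8 cs (rep cs hp8.isCartan s (sr i))).1 ⟨s, i, rfl⟩
  obtain ⟨v, hv⟩ := hs (sr i)
  have hsr : ∀ j, (sr i : Fin 8 → ℤ) j = if j = i then 1 else 0 := by
    intro j
    split_ifs with h
    · rw [h, sr_self]
    · exact sr_ne h
  rw [nroots] at hr
  rcases root_mod i ⟨r, hr⟩ (fun j => by
    show (2 : ℤ) ∣ vec chevE8 8 r j - _
    rw [e, hv, ← hsr j, Pi.sub_apply, Pi.smul_apply, smul_eq_mul, sub_sub_cancel_left]
    exact ⟨-v j, by ring⟩) with h | h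
  · left
    rw [← e]
    funext j
    rw [hsr j]
    exact h j
  · right
    rw [← e]
    funext j
    rw [Pi.neg_apply, hsr j]
    exact h j

/-- **An element of the Weyl group trivial modulo 2.** -/
theorem sign_of_mod {s : W} (hs : ∀ x, ∃ v : Fin 8 → ℤ, rep cs hp8.isCartan s x = x - (2 : ℤ) • v) :
    (∀ x, rep cs hp8.isCartan s x = x) ∨ (∀ x, rep cs hp8.isCartan s x = -x) := by
  classical
  have hne : ∀ i : Fin 8, (sr i : Fin 8 → ℤ) ≠ -sr i := by
    intro i h
    have h1 := congrFun h i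
    rw [Pi.neg_apply, sr_self] at h1
    norm_num at h1
  have hinv := fun i j : Fin 8 => bf_rep cs hp8.isCartan symm8 diag8 s (sr i) (sr j)
  have hcon := conn8 (fun i => decide (rep cs hp8.isCartan s (sr i) = sr i)) (by
    intro i j hij
    rw [decide_eq_decide]
    have h1 := hinv i j
    rcases sr_cases cs hs i with hi | hi <;> rcases sr_cases cs hs j with hj | hj
    · exact ⟨fun _ => hj, fun _ => hi⟩
    · exfalso
      rw [hi, hj, map_neg, bf_sr] at h1
      omega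
    · exfalso
      rw [hi, hj, LinearMap.map_neg₂, bf_sr] at h1
      omega
    · rw [hi, hj]
      exact ⟨fun h => absurd h.symm (hne i), fun h => absurd h.symm (hne j)⟩)
  by_cases h0 : rep cs hp8.isCartan s (sr 0) = sr 0
  · left
    intro x
    have h1 : ∀ i, rep cs hp8.isCartan s (sr i) = sr i := fun i => by
      have h2 := hcon i
      rw [decide_eq_decide] at h2
      exact h2.2 h0
    conv_lhs => rw [sum_sr x]
    conv_rhs => rw [sum_sr x]
    rw [map_sum]
    exact Finset.sum_congr rfl fun i _ => by rw [map_smul, h1]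
  · right
    intro x
    have h1 : ∀ i, rep cs hp8.isCartan s (sr i) = -sr i := fun i => by
      have h2 := hcon i
      rw [decide_eq_decide] at h2
      exact (sr_cases cs hs i).resolve_left fun h3 => h0 (h2.1 h3)
    conv_lhs => rw [sum_sr x]
    conv_rhs => rw [sum_sr x]
    rw [map_sum, ← Finset.sum_neg_distrib]
    exact Finset.sum_congr rfl fun i _ => by rw [map_smul, h1, smul_neg]

/-- **No element of the Weyl group of type `E₈` has both factors `Φ₁₀` and `Φ₁₂`.** -/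
theorem weyl_false {w : W} {y z : Fin 8 → ℤ} (hy : y ≠ 0) (hz : z ≠ 0)
    (hy' : aeval (rep cs hp8.isCartan w) (cyclotomic 10 ℤ) y = 0)
    (hz' : aeval (rep cs hp8.isCartan w) (cyclotomic 12 ℤ) z = 0) : False := by
  have h1 : ∀ x, ∃ v : Fin 8 → ℤ, rep cs hp8.isCartan (w ^ 30) x = x - (2 : ℤ) • v := by
    intro x
    rw [map_pow]
    exact split hy hz hy' hz' x
  rcases sign_of_mod cs h1 with h2 | h2
  · have h3 := h2 z
    rw [map_pow, pow30' hz'] at h3
    apply hz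
    funext i
    have h4 := congrFun h3 i
    rw [Pi.neg_apply] at h4
    show z i = 0
    omega
  · have h3 := h2 y
    rw [map_pow, pow30 hy'] at h3
    apply hy
    funext i
    have h4 := congrFun h3 i
    rw [Pi.neg_apply] at h4
    show y i = 0
    omega

end Weyl

/-! ### the group -/

section Grp

theorem order_coprime {l : ℕ} {w : Module.End ℤ (Fin l → ℤ)} {N : ℕ} (hN : 0 < N) (hw : w ^ N = 1) {ℓ : ℕ}
    (hℓ : ℓ.Prime) (hl : l + 1 < ℓ) : ∃ n, 0 < n ∧ w ^ n = 1 ∧ ¬ ℓ ∣ n := by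
  have h0 : 0 < orderOf w := orderOf_pos_iff.2 (isOfFinOrder_iff_pow_eq_one.2 ⟨N, hN, hw⟩)
  refine ⟨orderOf w, h0, pow_orderOf_eq_one w, ?_⟩
  rintro ⟨n, hn⟩
  have hn0 : 0 < n := Nat.pos_of_ne_zero fun h => by rw [h, mul_zero] at hn; omega
  have h1 : (w ^ n) ^ ℓ = 1 := by rw [← pow_mul, mul_comm, ← hn, pow_orderOf_eq_one]
  have h2 : w ^ n ≠ 1 := fun h => by
    have h3 := Nat.le_of_dvd hn0 (orderOf_dvd_of_pow_eq_one h)
    rw [hn] at h3
    have := hℓ.two_le
    nlinarith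
  have := prime_le hℓ h1 h2
  omega

/-- a nonzero vector of the kernel of `Φ_m(w)` -/
theorem exists_vec {k : Type u} [Field k] {l m N : ℕ} (hm : 0 < m) {w : Module.End ℤ (Fin l → ℤ)} (hN : 0 < N)
    (hw : w ^ N = 1) {ℓ : ℕ} (hℓ : ℓ.Prime) (hl : l + 1 < ℓ) (hℓm : ¬ ℓ ∣ m) {q : ℤ}
    (hq : (ℓ : ℤ) ∣ (cyclotomic m ℤ).eval q) {χ : Ch l k}
    (hχ : χ ∈ KerOf k (w - q • (1 : Module.End ℤ (Fin l → ℤ)))) (hχ1 : χ ≠ 1) (hχℓ : χ ^ ℓ = 1) :
    ∃ y : Fin l → ℤ, y ≠ 0 ∧ aeval w (cyclotomic m ℤ) y = 0 := by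
  obtain ⟨n, hn, hwn, hℓn⟩ := order_coprime hN hw hℓ hl
  obtain ⟨Q, -, x, hx, hx1⟩ := exists_ker hm hn hwn hℓ hℓn hℓm hq hχ hχ1 hχℓ
  refine ⟨_, fun h0 => hx1 ?_, hx⟩
  rw [h0, ofAdd_zero, map_one]

variable {D : ChevalleyDatum} {l : ℕ} {M : CoxeterMatrix (Fin l)} (hp : IsType D l M) {k : Type u} [Field k]

theorem tchar_eq_cX {t : ↥(D.group k)} (ht : t ∈ TT D k) (x : Fin l → ℤ) :
    ((tchar hp ⟨t, ht⟩ (Multiplicative.ofAdd x) : kˣ) : k) = cX hp t x := by
  have h1 : tchar hp ⟨t, ht⟩ (Multiplicative.ofAdd x) = ∏ i, (uch hp i ⟨t, ht⟩) ^ x i := rfl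
  rw [h1, Units.coe_prod]
  refine Finset.prod_congr rfl fun i _ => ?_
  rw [Units.val_zpow_eq_zpow_val]
  rfl

/-- **The eigencharacter of a semisimple element of an untwisted group.** -/
theorem exists_char {F : Type u} [Field F] [Fintype F] {q : ℕ} (hq : Fintype.card F = q) {W : Type*} [Group W]
    [Finite W] (cs : CoxeterSystem M W) {z : ↥(D.group F)} {m : ℕ} (hm : m ≠ 0) (hmq : m.Coprime q)
    (hz : z ^ m = 1) :
    ∃ (w : W) (χ : Ch l (AlgebraicClosure F)),
      χ ∈ KerOf (AlgebraicClosure F) (rep cs hp.isCartan w - (q : ℤ) • (1 : Module.End ℤ (Fin l → ℤ))) ∧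
      χ ^ m = 1 ∧ ∀ n : ℕ, χ ^ n = 1 → z ^ n = 1 := by
  classical
  obtain ⟨p, e, h1, h2, h3, he, hpe, hk⟩ := exists_closure hq
  have hpm : m.Coprime p := by
    rw [hpe] at hmq
    exact (Nat.coprime_pow_right_iff he m p).1 hmq
  set f : F →+* AlgebraicClosure F := algebraMap F _
  have hxm : (emb hp.inList f z) ^ m = 1 := by rw [← map_pow, hz, map_one]
  have hfix : phi D (AlgebraicClosure F) p e (emb hp.inList f z) = emb hp.inList f z :=
    phi_emb hp f (by rw [hq, hpe]) z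
  obtain ⟨z₁, t, n, w, e1, ht, hn, hnt⟩ := H720.TorusReal.exists_toral hp cs
    (H944.RootVals.hAlg_closure p F) hk (fr_phi hp cs) (nsys_of_locFin hp cs hk p) hfix hm hpm hxm
  have hτ := (tau_iff hp cs hk (isFrob_phi (D := D) (p := p) (e := e)) (fr_phi hp cs) hn ht).1 hnt
  have htn : ∀ n : ℕ, (emb hp.inList f z) ^ n = z₁ * t ^ n * z₁⁻¹ := by
    intro n
    rw [e1, conj_pow]
  refine ⟨w, tchar hp ⟨t, ht⟩, ?_, ?_, ?_⟩
  · refine (mem_kerOf _).2 fun x => ?_
    have h5 : (rep cs hp.isCartan w - (q : ℤ) • (1 : Module.End ℤ (Fin l → ℤ))) x =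
        rep cs hp.isCartan w x + -((q : ℤ) • x) := by
      rw [← sub_eq_add_neg]
      rfl
    rw [h5, ofAdd_add, map_mul, ofAdd_neg, map_inv, ofAdd_zsmul, map_zpow, zpow_natCast, mul_inv_eq_one]
    refine Units.ext ?_
    rw [Units.val_pow_eq_pow_val, tchar_eq_cX, tchar_eq_cX, hpe]
    exact hτ x
  · have h6 : t ^ m = 1 := by
      have h7 := htn m
      rw [hxm] at h7
      have h8 : t ^ m = z₁⁻¹ * (z₁ * t ^ m * z₁⁻¹) * z₁ := by group
      rw [h8, ← h7]
      group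
    have h9 : (⟨t, ht⟩ : ↥(TT D (AlgebraicClosure F))) ^ m = 1 := Subtype.ext h6
    exact (map_pow (tchar hp) _ m).symm.trans ((congrArg (tchar hp) h9).trans (map_one (tchar hp)))
  · intro n hn1
    have h6 := tchar_injective hp
      (((map_pow (tchar hp) _ n).trans hn1).trans (map_one (tchar hp)).symm)
    have h7 : t ^ n = 1 := congrArg Subtype.val h6
    have h8 := htn n
    rw [h7, mul_one, mul_inv_cancel, ← map_pow] at h8
    exact emb_injective hp.inList f (h8.trans (map_one _).symm)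

/-- **No commuting elements of orders 11 and 13 in `E₈(2)`.** -/
theorem no_143 {F : Type u} [Field F] [Fintype F] (hF : Fintype.card F = 2) {x y : ↥(chevE8.group F)}
    (hx : orderOf x = 11) (hy : orderOf y = 13) (hxy : x * y = y * x) : False := by
  classical
  have hc : Commute x y := hxy
  have hx11 : x ^ 11 = 1 := by rw [← hx]; exact pow_orderOf_eq_one x
  have hy13 : y ^ 13 = 1 := by rw [← hy]; exact pow_orderOf_eq_one y
  have hz : (x * y) ^ 143 = 1 := by
    rw [hc.mul_pow, show (143 : ℕ) = 11 * 13 by norm_num, pow_mul, hx11, one_pow, mul_comm 11 13, pow_mul, hy13,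
      one_pow, one_mul]
  have := finite_W hp8 CoxeterMatrix.E₈.toCoxeterSystem
  obtain ⟨w, χ, hχ, h1, h2⟩ := exists_char hp8 hF CoxeterMatrix.E₈.toCoxeterSystem (z := x * y) (m := 143)
    (by norm_num) (by norm_num) hz
  obtain ⟨N, hN, hwN⟩ : ∃ N, 0 < N ∧ (rep CoxeterMatrix.E₈.toCoxeterSystem hp8.isCartan w) ^ N = 1 :=
    ⟨orderOf w, orderOf_pos w, by rw [← map_pow, pow_orderOf_eq_one, map_one]⟩
  have ha : χ ^ 13 ≠ 1 := by
    intro h0
    have h3 := h2 13 h0
    rw [hc.mul_pow, hy13, mul_one] at h3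
    have h4 := orderOf_dvd_of_pow_eq_one h3
    rw [hx] at h4
    norm_num at h4
  have hb : χ ^ 11 ≠ 1 := by
    intro h0
    have h3 := h2 11 h0
    rw [hc.mul_pow, hx11, one_mul] at h3
    have h4 := orderOf_dvd_of_pow_eq_one h3
    rw [hy] at h4
    norm_num at h4
  obtain ⟨u, hu, hu'⟩ := exists_vec (m := 10) (ℓ := 11) (by norm_num) hN hwN (by norm_num) (by norm_num)
    (by norm_num) (q := ((2 : ℕ) : ℤ)) (by
      rw [c10]
      simp only [eval_add, eval_sub, eval_pow, eval_X, eval_one]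
      norm_num) (pow_mem hχ 13) ha (by rw [← pow_mul]; exact h1)
  obtain ⟨v, hv, hv'⟩ := exists_vec (m := 12) (ℓ := 13) (by norm_num) hN hwN (by norm_num) (by norm_num)
    (by norm_num) (q := ((2 : ℕ) : ℤ)) (by
      rw [c12]
      simp only [eval_add, eval_sub, eval_pow, eval_X, eval_one]
      norm_num) (pow_mem hχ 11) hb (by rw [← pow_mul]; exact h1)
  exact weyl_false _ hu hv hu' hv'

/-- **No power of a group of order divisible by 11 and 13 in `E₈(2)`.** -/
theorem no_pow {F : Type u} [Field F] [Fintype F] (hF : Fintype.card F = 2) {T : Type*} [Group T] [Finite T]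
    (h11 : 11 ∣ Nat.card T) (h13 : 13 ∣ Nat.card T) {ι : Type*} {i j : ι} (hij : i ≠ j)
    (f : (ι → T) →* ↥(chevE8.group F)) (hf : Function.Injective f) : False := by
  classical
  have : Fact (Nat.Prime 11) := ⟨by norm_num⟩
  have : Fact (Nat.Prime 13) := ⟨by norm_num⟩
  obtain ⟨a, ha⟩ := exists_prime_orderOf_dvd_card' (G := T) 11 h11
  obtain ⟨b, hb⟩ := exists_prime_orderOf_dvd_card' (G := T) 13 h13
  have hs : ∀ i : ι, Function.Injective (MonoidHom.mulSingle (fun _ : ι => T) i) := by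
    intro i c d h
    have h1 := congrFun h i
    simpa using h1
  refine no_143 hF (x := f (MonoidHom.mulSingle (fun _ : ι => T) i a))
    (y := f (MonoidHom.mulSingle (fun _ : ι => T) j b)) ?_ ?_ ?_
  · rw [orderOf_injective f hf, orderOf_injective _ (hs i), ha]
  · rw [orderOf_injective f hf, orderOf_injective _ (hs j), hb]
  · have h1 : Commute (MonoidHom.mulSingle (fun _ : ι => T) i a) (MonoidHom.mulSingle (fun _ : ι => T) j b) := by
      funext m
      show (Pi.mulSingle i a : ι → T) m * (Pi.mulSingle j b : ι → T) m =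
        (Pi.mulSingle j b : ι → T) m * (Pi.mulSingle i a : ι → T) m
      by_cases hm : m = i
      · rw [Pi.mulSingle_eq_of_ne (hm ▸ hij : m ≠ j), one_mul, mul_one]
      · rw [Pi.mulSingle_eq_of_ne hm, one_mul, mul_one]
    exact (h1.map f)

/-- **`A_n × A_n`, `n ≥ 13`, is not contained in `E₈(2)`.** -/
theorem no_alt_pow {F : Type u} [Field F] [Fintype F] (hF : Fintype.card F = 2) {n : ℕ} (hn : 13 ≤ n)
    {T : Type*} [Group T] (e : T ≃* alternatingGroup (Fin n)) {ι : Type*} {i j : ι} (hij : i ≠ j)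
    (f : (ι → T) →* ↥(chevE8.group F)) (hf : Function.Injective f) : False := by
  have hT : Nat.card T = Nat.card (alternatingGroup (Fin n)) := Nat.card_congr e.toEquiv
  have : Finite T := Finite.of_equiv _ e.symm.toEquiv
  have : Nontrivial (Fin n) := Fin.nontrivial_iff_two_le.2 (by omega)
  have hcard : 2 * Nat.card T = n.factorial := by
    rw [hT, nat_card_alternatingGroup, Nat.card_eq_fintype_card, Fintype.card_fin]
    exact Nat.mul_div_cancel' (Nat.dvd_factorial (by norm_num) (by omega))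
  have key : ∀ p : ℕ, p.Prime → p ≤ 13 → p ≠ 2 → p ∣ Nat.card T := by
    intro p hp' hp13 hp2
    have h1 : p ∣ 2 * Nat.card T := by
      rw [hcard]
      exact Nat.dvd_factorial hp'.pos (by omega)
    rcases hp'.dvd_mul.1 h1 with h2 | h2
    · exact absurd ((Nat.prime_dvd_prime_iff_eq hp' Nat.prime_two).1 h2) hp2
    · exact h2
  exact no_pow hF (key 11 (by norm_num) (by norm_num) (by norm_num)) (key 13 (by norm_num) (by norm_num) (by norm_num))
    hij f hf

end Grp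

end Cfsg.Agent.H790.EPX.E8A13
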